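import Mathlib
import Cfsg.Agent.Lib.Helper40.OTS.Defs
import Cfsg.Agent.Lib.Helper37.OHyp.Geom
import Cfsg.Agent.Lib.Helper10.OHyp.Invol
import Cfsg.Agent.Lib.Helper46.OHyp.Qnd
import Cfsg.Agent.Lib.Helper14.NegOne
import Cfsg.Agent.Lib.Helper14.Forms

/-!
# OTS (S5972), package [INV2-SUF]

Every involution of `Ω_{2d+1}(q)`, `q` odd, fixes a totally singular `m`-space when `m < d` or
`q ≡ 1 (mod 4)`.
-/

set_option autoImplicit false
open scoped MatrixGroups
open Matrix

namespace Cfsg.Agent.Lib.Helper24.OTS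

open Cfsg.Agent.Lib.Helper23.OHyp Cfsg.Agent.Lib.Helper94 Cfsg.Geo Module

universe u

/-- subspaces of every smaller dimension -/
theorem exists_le_finrank_eq {K V : Type*} [Field K] [AddCommGroup V] [Module K V]
    [FiniteDimensional K V] (U : Submodule K V) (k : ℕ) (hk : k ≤ finrank K U) :
    ∃ U' : Submodule K V, U' ≤ U ∧ finrank K U' = k := by
  obtain ⟨f, hf⟩ := exists_linearIndependent_of_le_finrank hk
  have hf' : LinearIndependent K (fun i => (f i : V)) :=
    hf.map' U.subtype (Submodule.ker_subtype U)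
  refine ⟨Submodule.span K (Set.range fun i => (f i : V)), ?_, ?_⟩
  · rw [Submodule.span_le]; rintro _ ⟨i, rfl⟩; exact (f i).2
  · rw [finrank_span_eq_card hf', Fintype.card_fin]

section

variable {F : Type u} [Field F] {ι : Type} [Fintype ι] [DecidableEq ι] {Q : (ι → F) → F}

/-- diagonalisation of an involutory isometry on an invariant nondegenerate subspace -/
theorem exists_eigen_fam (hQ : IsNondegenerateQuadraticForm Q) (h2 : (2 : F) ≠ 0)
    (X : Matrix ι ι F) (hisom : ∀ v, Q (X *ᵥ v) = Q v) (hXX : ∀ v, X *ᵥ (X *ᵥ v) = v) :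
    ∀ (n : ℕ) (C : Submodule F (ι → F)), (∀ w ∈ C, X *ᵥ w ∈ C) → Nd Q C → finrank F C = n →
      ∃ (a b : ℕ) (vp : Fin a → (ι → F)) (vm : Fin b → (ι → F)), a + b = n ∧
        (∀ i, Q (vp i) ≠ 0) ∧ (∀ j, Q (vm j) ≠ 0) ∧
        (∀ i, X *ᵥ vp i = vp i) ∧ (∀ j, X *ᵥ vm j = -(vm j)) ∧
        (∀ i i', i ≠ i' → pol Q (vp i) (vp i') = 0) ∧
        (∀ j j', j ≠ j' → pol Q (vm j) (vm j') = 0) ∧ (∀ i, vp i ∈ C) ∧ (∀ j, vm j ∈ C) := by
  have hBx : ∀ a b, pol Q (X *ᵥ a) (X *ᵥ b) = pol Q a b := by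
    intro a b
    simp only [pol, QuadraticMap.polar]
    rw [← Matrix.mulVec_add, hisom, hisom, hisom]
  intro n
  induction n with
  | zero =>
    intro C _ _ _
    exact ⟨0, 0, fun i => i.elim0, fun i => i.elim0, rfl, fun i => i.elim0, fun i => i.elim0,
      fun i => i.elim0, fun i => i.elim0, fun i => i.elim0, fun i => i.elim0, fun i => i.elim0,
      fun i => i.elim0⟩
  | succ n ih =>
    intro C hinv hC hdim
    have hne : C ≠ ⊥ := by
      rintro rfl
      rw [finrank_bot] at hdim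
      omega
    obtain ⟨e, heC, hQe, ε, hε, hXe⟩ :=
      Cfsg.Agent.Lib.Helper10.OHyp.exists_aniso_eigen hQ h2 X hisom hXX C hinv hC hne
    have hC1 : Nd Q (perpIn hQ C e) := perpIn_nondeg hQ h2 C hC e heC hQe
    have hd1 : finrank F (perpIn hQ C e) = n := by
      have := Cfsg.Agent.Lib.Helper37.OHyp.finrank_perpIn hQ h2 C e heC hQe
      omega
    have hinv1 : ∀ w ∈ perpIn hQ C e, X *ᵥ w ∈ perpIn hQ C e := by
      intro w hw
      rw [mem_perpIn] at hw ⊢
      refine ⟨hinv w hw.1, ?_⟩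
      have h1 := hBx w e
      rw [hXe, pol_smul_right hQ, hw.2] at h1
      rcases hε with rfl | rfl
      · simpa using h1
      · simpa using h1
    obtain ⟨a, b, vp, vm, hab, hQp, hQm, hXp, hXm, hpp, hmm, hpC, hmC⟩ :=
      ih (perpIn hQ C e) hinv1 hC1 hd1
    have hpC' := fun i => (mem_perpIn hQ C e (vp i)).mp (hpC i)
    have hmC' := fun j => (mem_perpIn hQ C e (vm j)).mp (hmC j)
    rcases hε with rfl | rfl
    · refine ⟨a + 1, b, Fin.cons e vp, vm, by omega, ?_, hQm, ?_, hXm, ?_, hmm, ?_,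
        fun j => (hmC' j).1⟩
      · intro i
        refine Fin.cases ?_ (fun i => ?_) i
        · simpa using hQe
        · simpa using hQp i
      · intro i
        refine Fin.cases ?_ (fun i => ?_) i
        · simpa using hXe
        · simpa using hXp i
      · intro i i'
        refine Fin.cases ?_ (fun i => ?_) i
        · refine Fin.cases ?_ (fun i' => ?_) i'
          · intro h; exact absurd rfl h
          · intro _
            simp only [Fin.cons_zero, Fin.cons_succ]
            rw [pol_comm]; exact (hpC' i').2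
        · refine Fin.cases ?_ (fun i' => ?_) i'
          · intro _
            simp only [Fin.cons_zero, Fin.cons_succ]
            exact (hpC' i).2
          · intro h
            simp only [Fin.cons_succ]
            exact hpp i i' (fun h' => h (by rw [h']))
      · intro i
        refine Fin.cases ?_ (fun i => ?_) i
        · simpa using heC
        · simpa using (hpC' i).1
    · refine ⟨a, b + 1, vp, Fin.cons e vm, by omega, hQp, ?_, hXp, ?_, hpp, ?_,
        fun i => (hpC' i).1, ?_⟩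
      · intro i
        refine Fin.cases ?_ (fun i => ?_) i
        · simpa using hQe
        · simpa using hQm i
      · intro i
        refine Fin.cases ?_ (fun i => ?_) i
        · simpa using hXe
        · simpa using hXm i
      · intro i i'
        refine Fin.cases ?_ (fun i => ?_) i
        · refine Fin.cases ?_ (fun i' => ?_) i'
          · intro h; exact absurd rfl h
          · intro _
            simp only [Fin.cons_zero, Fin.cons_succ]
            rw [pol_comm]; exact (hmC' i').2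
        · refine Fin.cases ?_ (fun i' => ?_) i'
          · intro _
            simp only [Fin.cons_zero, Fin.cons_succ]
            exact (hmC' i).2
          · intro h
            simp only [Fin.cons_succ]
            exact hmm i i' (fun h' => h (by rw [h']))
      · intro i
        refine Fin.cases ?_ (fun i => ?_) i
        · simpa using heC
        · simpa using (hmC' i).1

theorem nd_top (hQ : IsNondegenerateQuadraticForm Q) : Nd Q (⊤ : Submodule F (ι → F)) := by
  intro w _ hw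
  obtain ⟨⟨x, hx⟩, ⟨y, hy⟩⟩ := hQ.nondegenerate w hw
  exact ⟨⟨x, Submodule.mem_top, hx⟩, ⟨y, Submodule.mem_top, hy⟩⟩

end

theorem pkgInv2Suf : Cfsg.Agent.Lib.Helper40.OTS.PkgInv2Suf.{u} := by
  intro F _ _ d m hodd hmd hcase x hx hord
  classical
  have hchar : ringChar F ≠ 2 := by
    intro h
    have := FiniteField.even_card_iff_char_two.mp h
    obtain ⟨k, hk⟩ := hodd
    omega
  have h2 : (2 : F) ≠ 0 := Ring.two_ne_zero hchar
  have hQ : IsNondegenerateQuadraticForm (Cfsg.quadFormOdd d F) :=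
    Cfsg.Agent.Lib.Helper46.OHyp.qnd_nondeg h2 d
  have hQ'coe : ⇑(Cfsg.Agent.Lib.Helper14.oddQF d F) = Cfsg.quadFormOdd d F :=
    Cfsg.Agent.Lib.Helper14.oddQF_coe d F
  have hQ'nd := Cfsg.Agent.Lib.Helper14.oddQF_nondegenerate d F h2
  have hcard : Fintype.card (Unit ⊕ (Fin d ⊕ Fin d)) = 2 * d + 1 := by
    simp only [Fintype.card_sum, Fintype.card_fin, Fintype.card_unit]
    omega
  have hx' : x ∈ (Cfsg.Omega F (Cfsg.quadFormOdd d F)).map
      (Cfsg.isometryGroup F (Cfsg.quadFormOdd d F)).subtype := hx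
  obtain ⟨g, hg, hgx⟩ := Subgroup.mem_map.mp hx'
  have hgX : ((g : GL (Unit ⊕ (Fin d ⊕ Fin d)) F) : Matrix _ _ F) =
      (x : Matrix (Unit ⊕ (Fin d ⊕ Fin d)) (Unit ⊕ (Fin d ⊕ Fin d)) F) := by
    rw [← hgx]; rfl
  have hisom : ∀ v, Cfsg.quadFormOdd d F
      ((x : Matrix (Unit ⊕ (Fin d ⊕ Fin d)) (Unit ⊕ (Fin d ⊕ Fin d)) F) *ᵥ v) =
      Cfsg.quadFormOdd d F v := fun v => by
    rw [← hgX]; exact Cfsg.Agent.Lib.Helper14.isom_preserves g v
  have hx2 : x ^ 2 = 1 := by rw [← hord]; exact pow_orderOf_eq_one x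
  have hXX : ∀ v, (x : Matrix (Unit ⊕ (Fin d ⊕ Fin d)) (Unit ⊕ (Fin d ⊕ Fin d)) F) *ᵥ
      ((x : Matrix (Unit ⊕ (Fin d ⊕ Fin d)) (Unit ⊕ (Fin d ⊕ Fin d)) F) *ᵥ v) = v := by
    intro v
    have h : (x : Matrix (Unit ⊕ (Fin d ⊕ Fin d)) (Unit ⊕ (Fin d ⊕ Fin d)) F) *
        (x : Matrix (Unit ⊕ (Fin d ⊕ Fin d)) (Unit ⊕ (Fin d ⊕ Fin d)) F) = 1 := by
      have := congrArg (fun y : GL (Unit ⊕ (Fin d ⊕ Fin d)) F =>
        (y : Matrix (Unit ⊕ (Fin d ⊕ Fin d)) (Unit ⊕ (Fin d ⊕ Fin d)) F)) hx2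
      simpa [pow_two] using this
    rw [Matrix.mulVec_mulVec, h, Matrix.one_mulVec]
  generalize (x : Matrix (Unit ⊕ (Fin d ⊕ Fin d)) (Unit ⊕ (Fin d ⊕ Fin d)) F) = X at *
  obtain ⟨a, b, vp, vm, hab, hQp, hQm, hXp, hXm, hpp, hmm, -, -⟩ :=
    exists_eigen_fam hQ h2 X hisom hXX (2 * d + 1) ⊤ (fun w _ => Submodule.mem_top) (nd_top hQ)
      (by rw [finrank_top, Module.finrank_fintype_fun_eq_card, hcard])
  have hBx : ∀ u w, pol (Cfsg.quadFormOdd d F) (X *ᵥ u) (X *ᵥ w) =
      pol (Cfsg.quadFormOdd d F) u w := by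
    intro u w
    simp only [pol, QuadraticMap.polar]
    rw [← Matrix.mulVec_add, hisom, hisom, hisom]
  have hlip := Cfsg.Agent.Lib.Helper37.OHyp.orth_linearIndependent hQ h2 vp hQp hpp
  have hlim := Cfsg.Agent.Lib.Helper37.OHyp.orth_linearIndependent hQ h2 vm hQm hmm
  have hdp : finrank F (Submodule.span F (Set.range vp)) = a := by
    rw [finrank_span_eq_card hlip, Fintype.card_fin]
  have hdm : finrank F (Submodule.span F (Set.range vm)) = b := by
    rw [finrank_span_eq_card hlim, Fintype.card_fin]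
  have hNp : Nd (Cfsg.quadFormOdd d F) (Submodule.span F (Set.range vp)) :=
    Cfsg.Agent.Lib.Helper37.OHyp.orth_nd hQ h2 vp hQp hpp
  have hNm : Nd (Cfsg.quadFormOdd d F) (Submodule.span F (Set.range vm)) :=
    Cfsg.Agent.Lib.Helper37.OHyp.orth_nd hQ h2 vm hQm hmm
  have hF1 : ∀ u ∈ Submodule.span F (Set.range vp), X *ᵥ u = u := by
    intro u hu
    induction hu using Submodule.span_induction with
    | mem y hy => obtain ⟨i, rfl⟩ := hy; exact hXp i
    | zero => simp
    | add y z _ _ hy hz => rw [Matrix.mulVec_add, hy, hz]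
    | smul c y _ hy => rw [Matrix.mulVec_smul, hy]
  have hF2 : ∀ w ∈ Submodule.span F (Set.range vm), X *ᵥ w = -w := by
    intro w hw
    induction hw using Submodule.span_induction with
    | mem y hy => obtain ⟨j, rfl⟩ := hy; exact hXm j
    | zero => simp
    | add y z _ _ hy hz => rw [Matrix.mulVec_add, hy, hz, neg_add]
    | smul c y _ hy => rw [Matrix.mulVec_smul, hy, smul_neg]
  have hF6 : ∀ u ∈ Submodule.span F (Set.range vp), ∀ w ∈ Submodule.span F (Set.range vm),
      pol (Cfsg.quadFormOdd d F) u w = 0 := by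
    intro u hu w hw
    have h1 := hBx u w
    rw [hF1 u hu, hF2 w hw, pol_neg_right hQ] at h1
    have h3 : (2 : F) * pol (Cfsg.quadFormOdd d F) u w = 0 := by linear_combination (-1 : F) * h1
    exact (mul_eq_zero.mp h3).resolve_left h2
  have hdisj : Submodule.span F (Set.range vp) ⊓ Submodule.span F (Set.range vm) = ⊥ := by
    rw [eq_bot_iff]
    rintro u ⟨hu1, hu2⟩
    have h1 := hF1 u hu1
    have h3 := hF2 u hu2
    rw [h1] at h3
    have h4 : (2 : F) • u = 0 := by
      rw [two_smul]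
      nth_rewrite 2 [h3]
      simp
    rw [Submodule.mem_bot]
    exact (smul_eq_zero.mp h4).resolve_left h2
  have hsup : Submodule.span F (Set.range vp) ⊔ Submodule.span F (Set.range vm) = ⊤ := by
    apply Submodule.eq_top_of_finrank_eq
    have h := Submodule.finrank_sup_add_finrank_inf_eq (Submodule.span F (Set.range vp))
      (Submodule.span F (Set.range vm))
    rw [hdisj, finrank_bot, hdp, hdm] at h
    rw [Module.finrank_fintype_fun_eq_card, hcard]
    omega
  -- `X` as a product of reflections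
  have hl : ∀ u ∈ List.ofFn vm, Cfsg.Agent.Lib.Helper14.oddQF d F u ≠ 0 := by
    intro u hu
    rw [List.mem_ofFn] at hu
    obtain ⟨j, rfl⟩ := hu
    rw [hQ'coe]
    exact hQm j
  have hp : (List.ofFn vm).Pairwise
      (fun u v => QuadraticMap.polar ⇑(Cfsg.Agent.Lib.Helper14.oddQF d F) u v = 0) := by
    rw [List.pairwise_ofFn]
    intro i j hij
    rw [hQ'coe]
    exact hmm i j (ne_of_lt hij)
  have hMm : ∀ w ∈ Submodule.span F (Set.range vm),
      ((List.ofFn vm).map (Cfsg.reflectionMatrix ⇑(Cfsg.Agent.Lib.Helper14.oddQF d F))).prod *ᵥ w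
        = -w := by
    intro w hw
    induction hw using Submodule.span_induction with
    | mem y hy =>
      obtain ⟨j, rfl⟩ := hy
      exact Cfsg.Agent.Lib.Helper14.prod_refl_ortho_neg _ _ hl hp (vm j)
        (by rw [List.mem_ofFn]; exact ⟨j, rfl⟩)
    | zero => simp
    | add y z _ _ hy hz => rw [Matrix.mulVec_add, hy, hz, neg_add]
    | smul c y _ hy => rw [Matrix.mulVec_smul, hy, smul_neg]
  have hM : ((List.ofFn vm).map
      (Cfsg.reflectionMatrix ⇑(Cfsg.Agent.Lib.Helper14.oddQF d F))).prod = X := by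
    apply Matrix.toLin'.injective
    apply LinearMap.ext
    intro z
    rw [Matrix.toLin'_apply, Matrix.toLin'_apply]
    have hz : z ∈ Submodule.span F (Set.range vp) ⊔ Submodule.span F (Set.range vm) := by
      rw [hsup]; exact Submodule.mem_top
    obtain ⟨u, hu, w, hw, rfl⟩ := Submodule.mem_sup.mp hz
    rw [Matrix.mulVec_add, Matrix.mulVec_add, hF1 u hu, hF2 w hw, hMm w hw]
    congr 1
    apply Cfsg.Agent.Lib.Helper14.prod_refl_ortho_fix
    intro y hy
    rw [List.mem_ofFn] at hy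
    obtain ⟨j, rfl⟩ := hy
    rw [hQ'coe, QuadraticMap.polar_comm]
    exact hF6 u hu (vm j) (Submodule.subset_span ⟨j, rfl⟩)
  obtain ⟨hev, hsq⟩ := (Cfsg.Agent.Lib.Helper14.exists_mem_omega_iff h2
    (Cfsg.Agent.Lib.Helper14.oddQF d F) hQ'nd (Cfsg.quadFormOdd d F) hQ'coe (List.ofFn vm) hl X
    hM).mp ⟨g, hg, hgX⟩
  rw [List.length_ofFn] at hev
  have hprod : ((List.ofFn vm).map ⇑(Cfsg.Agent.Lib.Helper14.oddQF d F)).prod =
      ∏ j, Cfsg.quadFormOdd d F (vm j) := by
    rw [List.map_ofFn, List.prod_ofFn, hQ'coe]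
    rfl
  rw [hprod] at hsq
  obtain ⟨s, hs⟩ := hev
  -- the totally singular part in the `+1`-eigenspace
  obtain ⟨W₀, hW₀le, -, hW₀dim, hW₀plus⟩ := Cfsg.Agent.Lib.Helper37.OHyp.pkgGeom F
    (Unit ⊕ (Fin d ⊕ Fin d)) (Cfsg.quadFormOdd d F) hQ h2 (Submodule.span F (Set.range vp)) hNp
    (2 * (d - s)) True (even_two_mul _) (by rw [hdp]; omega) (fun _ => trivial)
  obtain ⟨Up, hUp_le, hUp_ts, hUp_dim⟩ := hW₀plus.mpr trivial
  have hUpd : finrank F Up = d - s := by omega
  -- the totally singular part in the `-1`-eigenspace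
  obtain ⟨Um, hUm_le, hUm_ts, hUm_dim⟩ : ∃ U : Submodule F (Unit ⊕ (Fin d ⊕ Fin d) → F),
      U ≤ Submodule.span F (Set.range vm) ∧ (∀ w ∈ U, Cfsg.quadFormOdd d F w = 0) ∧
      m + s ≤ d + finrank F U := by
    rcases hcase with hlt | h41
    · by_cases hs0 : s = 0
      · exact ⟨⊥, bot_le, fun w hw => by rw [(Submodule.mem_bot F).mp hw]; exact Q_zero hQ,
          by rw [finrank_bot]; omega⟩
      · obtain ⟨W₁, hW₁le, -, hW₁dim, hW₁plus⟩ := Cfsg.Agent.Lib.Helper37.OHyp.pkgGeom F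
          (Unit ⊕ (Fin d ⊕ Fin d)) (Cfsg.quadFormOdd d F) hQ h2
          (Submodule.span F (Set.range vm)) hNm (2 * (s - 1)) True (even_two_mul _)
          (by rw [hdm]; omega) (fun _ => trivial)
        obtain ⟨U, hU_le, hU_ts, hU_dim⟩ := hW₁plus.mpr trivial
        exact ⟨U, hU_le.trans hW₁le, hU_ts, by omega⟩
    · have hneg : IsSquare (-1 : F) := by
        rw [FiniteField.isSquare_neg_one_iff]; omega
      have hplus : Plus (Cfsg.quadFormOdd d F) (Submodule.span F (Set.range vm)) := by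
        rw [Cfsg.Agent.Lib.Helper37.OHyp.orth_plus_iff hQ h2 s (by omega) vm hQm hmm]
        rw [Finset.prod_mul_distrib, Finset.prod_const, Finset.card_univ, Fintype.card_fin]
        refine IsSquare.mul (hneg.pow s) (IsSquare.mul ?_ hsq)
        exact ⟨2 ^ s, by rw [hs, pow_add]⟩
      obtain ⟨U, hU_le, hU_ts, hU_dim⟩ := hplus
      exact ⟨U, hU_le, hU_ts, by omega⟩
  obtain ⟨Up', hUp'le, hUp'dim⟩ := exists_le_finrank_eq Up (min m (d - s))
    (by rw [hUpd]; exact min_le_right _ _)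
  obtain ⟨Um', hUm'le, hUm'dim⟩ := exists_le_finrank_eq Um (m - min m (d - s)) (by omega)
  have hUp'sp : Up' ≤ Submodule.span F (Set.range vp) := hUp'le.trans (hUp_le.trans hW₀le)
  have hUm'sp : Um' ≤ Submodule.span F (Set.range vm) := hUm'le.trans hUm_le
  refine ⟨Up' ⊔ Um', ?_, ?_, ?_⟩
  · have hd : Up' ⊓ Um' = ⊥ := by
      rw [eq_bot_iff, ← hdisj]
      exact inf_le_inf hUp'sp hUm'sp
    have h := Submodule.finrank_sup_add_finrank_inf_eq Up' Um'
    rw [hd, finrank_bot, hUp'dim, hUm'dim] at h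
    omega
  · intro w hw
    obtain ⟨u, hu, w', hw', rfl⟩ := Submodule.mem_sup.mp hw
    rw [Q_add (Q := Cfsg.quadFormOdd d F), hUp_ts u (hUp'le hu), hUm_ts w' (hUm'le hw'),
      hF6 u (hUp'sp hu) w' (hUm'sp hw')]
    simp
  · rw [Submodule.map_le_iff_le_comap]
    intro w hw
    rw [Submodule.mem_comap, Matrix.toLin'_apply]
    obtain ⟨u, hu, w', hw', rfl⟩ := Submodule.mem_sup.mp hw
    rw [Matrix.mulVec_add, hF1 u (hUp'sp hu), hF2 w' (hUm'sp hw')]
    exact Submodule.add_mem _ (Submodule.mem_sup_left hu)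
      (Submodule.neg_mem _ (Submodule.mem_sup_right hw'))

end Cfsg.Agent.Lib.Helper24.OTS
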